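import Mathlib
import Cfsg.Agent.Lib.CGT.Conj

/-! Sylow counting inside overgroups, and normalisers of cyclic subgroups by kernel checks. -/

namespace H30.SM
open H54

variable {G : Type*} [Group G]

/-- Sylow count inside a subgroup for a prime dividing the order exactly once -/
theorem count [Finite G] {p : ℕ} (hp : p.Prime) {K : Subgroup G} {x : G} (hx : x ∈ K)
    (ho : orderOf x = p) (hK : ¬ p ^ 2 ∣ Nat.card K) :
    ∃ t, Nat.card K = Nat.card (K ⊓ Subgroup.normalizer (Subgroup.zpowers x : Set G) : Subgroup G) * t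
      ∧ t % p = 1 := by
  haveI : Fact p.Prime := ⟨hp⟩
  have hle : Subgroup.zpowers x ≤ K := (Subgroup.zpowers_le).2 hx
  set X : Subgroup K := (Subgroup.zpowers x).subgroupOf K with hX
  have hc : Nat.card X = p ^ 1 := by
    rw [hX, Nat.card_congr (Subgroup.subgroupOfEquivOfLe hle).toEquiv, Nat.card_zpowers, ho, pow_one]
  have hi : ¬ p ∣ X.index := fun h => hK (by
    rw [← X.card_mul_index, hc, pow_one, pow_two]
    exact Nat.mul_dvd_mul_left _ h)
  let P : Sylow p K := (IsPGroup.of_card hc).toSylow hi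
  refine ⟨Nat.card (Sylow p K), ?_, ?_⟩
  · rw [P.card_eq_index_normalizer]
    have e : Subgroup.normalizer (P : Set K) =
        (Subgroup.normalizer (Subgroup.zpowers x : Set G)).subgroupOf K :=
      (Subgroup.subgroupOf_normalizer_eq hle).symm
    have e2 : Nat.card (K ⊓ Subgroup.normalizer (Subgroup.zpowers x : Set G) : Subgroup G) =
        Nat.card ((Subgroup.normalizer (Subgroup.zpowers x : Set G)).subgroupOf K) := by
      rw [inf_comm, ← Subgroup.inf_subgroupOf_right]
      exact (Nat.card_congr (Subgroup.subgroupOfEquivOfLe inf_le_right).toEquiv).symm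
    rw [e2, e, Subgroup.card_mul_index]
  · have := card_sylow_modEq_one p K
    unfold Nat.ModEq at this
    rw [this, Nat.mod_eq_of_lt hp.one_lt]

theorem mem_norm [Finite G] {f x : G} {k : ℕ} (h : f * x * f⁻¹ = x ^ k) :
    f ∈ Subgroup.normalizer (Subgroup.zpowers x : Set G) := by
  refine Subgroup.mem_normalizer_fintype fun n hn => ?_
  obtain ⟨m, rfl⟩ := hn
  show f * x ^ m * f⁻¹ ∈ Subgroup.zpowers x
  rw [← conj_zpow, h]
  exact Subgroup.zpow_mem _ (Subgroup.pow_mem _ (Subgroup.mem_zpowers x) _) _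

variable {Ω : Type*} [MulAction G Ω] {c : Cfg} {pt : ℕ → Ω}

/-- either no element conjugates `p` to its `k`-th power, or a listed element of `F` does -/
noncomputable def normItem (c : Cfg) (ch chF : Chain) (p : ℕ) (qs : List ℕ) (k : ℕ) : Bool :=
  sel (Nat.beq (nth qs k) 0)
    (noSol c (necConj c [(p, powc c p k)]) (fltConj c [(p, powc c p k)])
      (leafConj c [(p, powc c p k)]) ch 0 c.one)
    (band (memb c chF (nth qs k)) (eqc c (conjc c (nth qs k) p) (powc c p k)))

theorem norm_le (X : Ctx c pt) (hK : Kfix G c pt = ⊥) {ch chF : Chain} {H F : Subgroup G}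
    (a : Good c pt ch H) (aF : Good c pt chF F) (hFH : F ≤ H) {x : G} {p n : ℕ} (r : Rep c pt x p)
    (ho : orderOf x = n) (hn : 0 < n) (hC : H ⊓ Subgroup.centralizer {x} ≤ F) {qs : List ℕ}
    (h : allLt (normItem c ch chF p qs) n = true) :
    H ⊓ Subgroup.normalizer (Subgroup.zpowers x : Set G) ≤ F := by
  rintro g ⟨hg, hN⟩
  have h1 : g * x * g⁻¹ ∈ Subgroup.zpowers x :=
    (Subgroup.mem_normalizer_iff.1 hN x).1 (Subgroup.mem_zpowers x)
  have hfo : IsOfFinOrder x := orderOf_pos_iff.1 (ho ▸ hn)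
  rw [← hfo.mem_powers_iff_mem_zpowers] at h1
  obtain ⟨m, hm⟩ := h1
  have hm' : g * x * g⁻¹ = x ^ (m % n) := by rw [← ho, pow_mod_orderOf]; exact hm.symm
  have hk := (allLt_iff _ _).1 h (m % n) (Nat.mod_lt _ hn)
  unfold normItem at hk
  cases e : Nat.beq (nth qs (m % n)) 0
  · rw [e, sel_false, band_eq_true] at hk
    obtain ⟨f, hf, rf⟩ := aF.in_of_memb X hk.1
    have e2 : f * x * f⁻¹ = x ^ (m % n) := ((rf.conj X r).eqc_iff X hK (r.pow X _)).1 hk.2
    have : f⁻¹ * g ∈ F := hC ⟨H.mul_mem (H.inv_mem (hFH hf)) hg, by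
      refine Subgroup.mem_centralizer_iff.2 ?_
      rintro y rfl
      have : g * y * g⁻¹ = f * y * f⁻¹ := hm'.trans e2.symm
      calc y * (f⁻¹ * g) = f⁻¹ * (f * y * f⁻¹) * g := by group
        _ = f⁻¹ * (g * y * g⁻¹) * g := by rw [this]
        _ = f⁻¹ * g * y := by group⟩
    simpa using F.mul_mem hf this
  · rw [e, sel_true] at hk
    exact absurd hm' (a.not_conj X r (r.pow X _) hk g hg)

/-- an overgroup of a transitive subgroup is determined by its point stabiliser -/
theorem eq_of_inf_stabilizer {L K : Subgroup G} (hLK : L ≤ K) (a : Ω)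
    (ht : ∀ g ∈ K, ∃ l ∈ L, l • a = g • a) (h : K ⊓ MulAction.stabilizer G a ≤ L) : K = L := by
  refine le_antisymm (fun g hg => ?_) hLK
  obtain ⟨l, hl, e⟩ := ht g hg
  have : l⁻¹ * g ∈ L := h ⟨K.mul_mem (K.inv_mem (hLK hl)) hg, by
    show (l⁻¹ * g) • a = a
    rw [mul_smul, ← e, inv_smul_smul]⟩
  simpa using L.mul_mem hl this

/-- `IsCoatom (B.subgroupOf M)` from a statement on intermediate subgroups -/
theorem coatom_subgroupOf {B M : Subgroup G} (hBM : B ≤ M) (hne : B ≠ M)
    (h : ∀ K, B ≤ K → K ≤ M → K = B ∨ K = M) : IsCoatom (B.subgroupOf M) := by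
  refine ⟨fun e => hne (le_antisymm hBM (Subgroup.subgroupOf_eq_top.1 e)), fun K hK => ?_⟩
  have h1 : B ≤ K.map M.subtype := by
    intro g hg
    exact ⟨⟨g, hBM hg⟩, hK.le hg, rfl⟩
  rcases h _ h1 (Subgroup.map_subtype_le _) with e | e
  · exfalso
    refine hK.ne (le_antisymm hK.le fun g hg => ?_)
    show (g : G) ∈ B
    rw [← e]
    exact ⟨g, hg, rfl⟩
  · refine top_unique fun g _ => ?_
    have : (g : G) ∈ K.map M.subtype := e.symm ▸ g.2
    obtain ⟨g', hg', e'⟩ := this
    exact (Subtype.ext e' : g' = g) ▸ hg'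

end H30.SM
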